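import Mathlib
import Cfsg.Agent.Lib.Helper14.OCls.Defs
import Cfsg.Agent.Lib.Helper8.WallBasic
import Cfsg.Agent.Lib.Helper8.OmegaConj
import Cfsg.Agent.Lib.Helper44.Char2Forms

/-!
# OCLS package ODDMINUS

Minus-type form, no irreducible factor of `X ^ r - 1` self-dual: an isometry `g` with `g ^ r = 1`
fixes a non-zero vector.  Otherwise the space would be the direct sum of two totally singular
subspaces `ker f(g)`, `ker f'(g)`, which have dimension at most `m` each.
-/

set_option autoImplicit false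

namespace Cfsg.Agent.Lib.Helper8.OCls

open Polynomial Module Matrix
open Cfsg.Agent.Lib.Helper14.OCls Cfsg.Agent.Lib.Helper40.PrimeOrderGL
  Cfsg.Agent.Lib.Helper40.DualPoly Cfsg.Agent.Lib.Helper40.GUPrimeOrder
  Cfsg.Agent.Lib.Helper8.WallBasic

universe u

section general

variable {F : Type*} [Field F] {V : Type*} [AddCommGroup V] [Module F V]

/-- Powers of inverse endomorphisms. -/
theorem pow_mul_pow_inv {A B : V →ₗ[F] V} (hAB : A * B = 1) (hBA : B * A = 1) (j : ℕ) :
    A ^ j * B ^ j = 1 := by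
  have hc : Commute A B := by
    show A * B = B * A
    rw [hAB, hBA]
  rw [← hc.mul_pow, hAB, one_pow]

/-- The reversed polynomial evaluated at `A` is `A ^ deg` times the polynomial evaluated at the
inverse of `A`. -/
theorem aeval_reverse {A B : V →ₗ[F] V} (hAB : A * B = 1) (hBA : B * A = 1) (p : F[X]) :
    aeval A p.reverse = A ^ p.natDegree * aeval B p := by
  have h1 : p.reverse.natDegree < p.natDegree + 1 :=
    Nat.lt_succ_of_le (reverse_natDegree_le p)
  rw [aeval_eq_sum_range' h1, aeval_eq_sum_range, Finset.mul_sum,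
    ← Finset.sum_range_reflect (fun i => A ^ p.natDegree * (p.coeff i • B ^ i))]
  apply Finset.sum_congr rfl
  intro i hi
  rw [Finset.mem_range] at hi
  have hi' : i ≤ p.natDegree := by omega
  have e0 : p.natDegree + 1 - 1 - i = p.natDegree - i := by omega
  show p.reverse.coeff i • A ^ i
    = A ^ p.natDegree * (p.coeff (p.natDegree + 1 - 1 - i) • B ^ (p.natDegree + 1 - 1 - i))
  rw [e0, coeff_reverse, revAt_le hi', mul_smul_comm]
  congr 1
  have e2 : A ^ p.natDegree = A ^ i * A ^ (p.natDegree - i) := by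
    rw [← pow_add]
    congr 1
    omega
  rw [e2, mul_assoc, pow_mul_pow_inv hAB hBA, mul_one]

/-- The dual polynomial evaluated at `A`. -/
theorem aeval_dual {A B : V →ₗ[F] V} (hAB : A * B = 1) (hBA : B * A = 1) (p : F[X]) (x : V) :
    aeval A (dual (RingHom.id F) p) x = (p.coeff 0)⁻¹ • (A ^ p.natDegree) (aeval B p x) := by
  unfold dual
  rw [Polynomial.map_id, map_mul, aeval_C, aeval_reverse hAB hBA]
  rfl

/-- The adjoint of a polynomial in `A`. -/
theorem adj_poly {β : LinearMap.BilinForm F V} {A B : V →ₗ[F] V}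
    (h : ∀ x y, β (A x) y = β x (B y)) (p : F[X]) (x y : V) :
    β (aeval A p x) y = β x (aeval B p y) := by
  have hpow : ∀ (n : ℕ) (x y : V), β ((A ^ n) x) y = β x ((B ^ n) y) := by
    intro n
    induction n with
    | zero => intro x y; simp
    | succ n ih =>
      intro x y
      rw [pow_succ, pow_succ', Module.End.mul_apply, Module.End.mul_apply, ih, h]
  induction p using Polynomial.induction_on' with
  | add p q hp hq =>
    rw [map_add, map_add, LinearMap.add_apply, LinearMap.add_apply, map_add,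
      LinearMap.add_apply, map_add, hp, hq]
  | monomial n c =>
    rw [aeval_monomial, aeval_monomial]
    show β (algebraMap F (Module.End F V) c ((A ^ n) x)) y
      = β x (algebraMap F (Module.End F V) c ((B ^ n) y))
    rw [Module.algebraMap_end_apply, Module.algebraMap_end_apply, map_smul, map_smul,
      LinearMap.smul_apply, hpow]

end general

section ts

variable {F : Type*} [Field F] {V : Type*} [AddCommGroup V] [Module F V] [FiniteDimensional F V]

/-- The kernel of `f(A)` is totally singular when `f` is coprime to its dual and `A` is an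
isometry of finite order without non-zero fixed vectors. -/
theorem ts_ker (Q : QuadraticForm F V) (A : V →ₗ[F] V) (N : ℕ) (hN : 0 < N) (hA : A ^ N = 1)
    (hQA : ∀ v, Q (A v) = Q v) (hfix : ∀ v, A v = v → v = 0) (f : F[X])
    (hcop : IsCoprime f (dual (RingHom.id F) f)) :
    ∀ x ∈ LinearMap.ker (aeval A f), Q x = 0 := by
  obtain ⟨B, hB⟩ : ∃ B : V →ₗ[F] V, B = A ^ (N - 1) := ⟨_, rfl⟩
  have hAB : A * B = 1 := by
    rw [hB, ← pow_succ', Nat.sub_add_cancel hN, hA]
  have hBA : B * A = 1 := by
    rw [hB, ← pow_succ, Nat.sub_add_cancel hN, hA]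
  have hpolA : ∀ u w, QuadraticMap.polar Q (A u) (A w) = QuadraticMap.polar Q u w := by
    intro u w
    unfold QuadraticMap.polar
    rw [← map_add, hQA, hQA, hQA]
  have hadj : ∀ x y, QuadraticMap.polarBilin Q (A x) y = QuadraticMap.polarBilin Q x (B y) := by
    intro x y
    show QuadraticMap.polar Q (A x) y = QuadraticMap.polar Q x (B y)
    have h1 : A (B y) = y := by
      rw [← Module.End.mul_apply, hAB, Module.End.one_apply]
    conv_lhs => rw [← h1]
    exact hpolA x (B y)
  -- total isotropy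
  have hiso : ∀ x ∈ LinearMap.ker (aeval A f), ∀ y ∈ LinearMap.ker (aeval A f),
      QuadraticMap.polar Q x y = 0 := by
    intro x hx y hy
    rw [LinearMap.mem_ker] at hx hy
    obtain ⟨u, v, huv⟩ := hcop
    have h1 : y = aeval A (v * dual (RingHom.id F) f) y := by
      have h2 : aeval A (u * f + v * dual (RingHom.id F) f) y = y := by
        rw [huv, map_one, Module.End.one_apply]
      rw [map_add, LinearMap.add_apply, aeval_mul_apply, hy, map_zero, zero_add] at h2
      exact h2.symm
    rw [aeval_mul_apply, aeval_dual hAB hBA, map_smul] at h1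
    -- `y = c⁻¹ • v(A) (A ^ d (f(B) y))`, move `f(B)` to the front
    have h3 : aeval A v ((A ^ f.natDegree) (aeval B f y))
        = aeval B f (aeval A (v * X ^ f.natDegree) y) := by
      have e1 : (A ^ f.natDegree) = aeval A (X ^ f.natDegree : F[X]) := (aeval_X_pow A).symm
      rw [hB, aeval_pow_eq, e1, ← aeval_mul_apply, ← aeval_mul_apply, ← aeval_mul_apply]
      congr 2
      ring
    rw [h3] at h1
    have h4 : QuadraticMap.polarBilin Q x y = 0 := by
      rw [h1, map_smul, ← adj_poly hadj, hx, map_zero, LinearMap.zero_apply, smul_zero]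
    exact h4
  -- total singularity
  intro x hx
  have hinvU : ∀ u ∈ LinearMap.ker (aeval A f), (A - 1) u ∈ LinearMap.ker (aeval A f) := by
    intro u hu
    rw [LinearMap.sub_apply, Module.End.one_apply]
    exact Submodule.sub_mem _ (inv_ker A f u hu) hu
  have hinj : Function.Injective ((A - 1).restrict hinvU) := by
    rw [← LinearMap.ker_eq_bot, LinearMap.ker_eq_bot']
    intro u hu
    have h1 : (A - 1) (u : V) = 0 := by
      have := congrArg Subtype.val hu
      simpa using this
    rw [LinearMap.sub_apply, Module.End.one_apply, sub_eq_zero] at h1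
    exact Subtype.ext (hfix _ h1)
  obtain ⟨x', hx'⟩ := (LinearMap.injective_iff_surjective.mp hinj) ⟨x, hx⟩
  have hx'' : A (x' : V) - (x' : V) = x := by
    have := congrArg Subtype.val hx'
    simpa using this
  have h5 : Q (A (x' : V) - (x' : V))
      = Q (A (x' : V)) + Q (x' : V) - QuadraticMap.polar Q (A (x' : V)) (x' : V) := by
    have h6 : Q (A (x' : V) + -(x' : V)) = Q (A (x' : V)) + Q (-(x' : V))
        + QuadraticMap.polar Q (A (x' : V)) (-(x' : V)) := QuadraticMap.map_add Q _ _
    rw [QuadraticMap.polar_neg_right, QuadraticMap.map_neg] at h6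
    rw [sub_eq_add_neg, h6]
    ring
  have h7 : QuadraticMap.polar Q (x' : V) (x' : V) = 0 := hiso _ x'.2 _ x'.2
  rw [QuadraticMap.polar_self] at h7
  rw [← hx'', h5, hQA, hiso _ (inv_ker A f _ x'.2) _ x'.2, sub_zero]
  simpa [two_mul] using h7

end ts

/-- **Package ODDMINUS.** -/
theorem pkgOddMinus : PkgOddMinus.{u} := by
  intro F _ _ S r b hS hr hrF hnsd m a c hac g hgQ hgr
  classical
  by_contra hcon
  push_neg at hcon
  obtain ⟨A, hAdef⟩ : ∃ A : (((Fin m ⊕ Fin m) ⊕ Fin 2) → F) →ₗ[F] (((Fin m ⊕ Fin m) ⊕ Fin 2) → F),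
      A = Matrix.toLin' g := ⟨_, rfl⟩
  have hAapp : ∀ v, A v = g *ᵥ v := fun v => by rw [hAdef, Matrix.toLin'_apply]
  have hAr : A ^ r = 1 := by
    rw [hAdef]
    change Matrix.toLinAlgEquiv' g ^ r = 1
    rw [← map_pow, hgr, map_one]
  have hQA : ∀ v, Cfsg.Agent.Lib.Helper14.minusQF m F a c (A v)
      = Cfsg.Agent.Lib.Helper14.minusQF m F a c v := by
    intro v
    rw [Cfsg.Agent.Lib.Helper14.minusQF_coe, hAapp]
    exact hgQ v
  have hfix : ∀ v, A v = v → v = 0 := by
    intro v hv
    by_contra hv0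
    exact hcon v hv0 (by rw [← hAapp]; exact hv)
  have hnd := Cfsg.Agent.Lib.Helper44.minusQF_nondegenerate_all m F a c hac
  -- the characteristic polynomial
  obtain ⟨al, -, hχ⟩ := Cfsg.Agent.Lib.Helper40.SpExist.charpoly_eq_chi' hS g hgr (2 * m + 2)
    (by simp only [Fintype.card_sum, Fintype.card_fin]; omega)
  obtain ⟨k, hk⟩ : ∃ k : ℕ, k = 2 * m + 2 - b * ∑ π, al π := ⟨_, rfl⟩
  rw [← hk] at hχ
  have hCH : aeval A g.charpoly = 0 := by
    rw [hAdef]
    change aeval (Matrix.toLinAlgEquiv' g) g.charpoly = 0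
    rw [aeval_algHom_apply, Matrix.aeval_self_charpoly, map_zero]
  -- the duality on `S`
  have hσ2 : ∀ a : F, (RingHom.id F) ((RingHom.id F) a) = a := fun _ => rfl
  have hmemS : ∀ π : S, dual (RingHom.id F) π.1 ∈ S := by
    intro π
    have h0 := Factors.coeff_zero_ne hS hr.pos π π.2
    have hmon := monic_dual (RingHom.id F) π.1 h0
    have hirr := irreducible_dual (RingHom.id F) hσ2 π.1 (hS.monic π π.2) h0 (hS.irred π π.2)
    have hdvd : dual (RingHom.id F) π.1 ∣ X ^ r - 1 := by
      obtain ⟨c, hc⟩ := hS.dvd π π.2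
      have h1 := congrArg (dual (RingHom.id F)) hc
      rw [dual_X_pow_sub_one (RingHom.id F) r hr.pos, dual_mul] at h1
      exact ⟨_, h1⟩
    rcases hS.cover _ hmon hirr hdvd with h | h
    · exfalso
      have h2 := dual_dual (RingHom.id F) hσ2 π.1 (hS.monic π π.2) h0
      rw [h, dual_X_sub_one] at h2
      exact hS.notMem (h2 ▸ π.2)
    · exact h
  obtain ⟨dg, hdg⟩ : ∃ dg : S → S, ∀ π : S, (dg π : F[X]) = dual (RingHom.id F) π.1 :=
    ⟨fun π => ⟨dual (RingHom.id F) π.1, hmemS π⟩, fun π => rfl⟩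
  have hdd : ∀ π, dg (dg π) = π := by
    intro π
    apply Subtype.ext
    rw [hdg, hdg, dual_dual (RingHom.id F) hσ2 π.1 (hS.monic π π.2)
      (Factors.coeff_zero_ne hS hr.pos π π.2)]
  have hdgne : ∀ π, dg π ≠ π := by
    intro π h
    apply hnsd π.1 π.2
    rw [← hdg, h]
  obtain ⟨P, hP⟩ : ∃ P : S → Prop, ∀ x, P (dg x) ↔ ¬ P x := by
    refine ⟨fun x => Fintype.equivFin S x < Fintype.equivFin S (dg x), ?_⟩
    intro x
    simp only [hdd]
    have hne : Fintype.equivFin S (dg x) ≠ Fintype.equivFin S x :=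
      fun h => hdgne x ((Fintype.equivFin S).injective h)
    constructor
    · intro h h'
      exact absurd (lt_trans h h') (lt_irrefl _)
    · intro h
      exact lt_of_le_of_ne (not_lt.mp h) hne
  -- coprimality of distinct members of `S`
  have hcopS : ∀ π π' : S, π ≠ π' → IsCoprime π.1 π'.1 := by
    intro π π' hne
    rw [(hS.irred π π.2).coprime_iff_not_dvd]
    intro hdvd
    apply hne
    apply Subtype.ext
    exact eq_of_monic_of_associated (hS.monic π π.2) (hS.monic π' π'.2)
      ((hS.irred π π.2).associated_of_dvd (hS.irred π' π'.2) hdvd)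
  -- the general step: a part `T` of `S` with `dg T` disjoint from `T`
  have key : ∀ T : Finset S, (∀ π ∈ T, dg π ∉ T) →
      ∀ x ∈ LinearMap.ker (aeval A (∏ π ∈ T, π.1 ^ al π)),
        Cfsg.quadFormMinus m F a c x = 0 := by
    intro T hT x hx
    rw [← Cfsg.Agent.Lib.Helper14.minusQF_coe]
    refine ts_ker (Cfsg.Agent.Lib.Helper14.minusQF m F a c) A r hr.pos hAr hQA hfix _ ?_ x hx
    rw [dual_prod]
    apply IsCoprime.prod_left
    intro π hπ
    apply IsCoprime.prod_right
    intro π' hπ'
    rw [dual_pow, ← hdg]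
    apply IsCoprime.pow
    apply hcopS
    intro h
    apply hT π' hπ'
    rw [← h]
    exact hπ
  have hU := key (Finset.univ.filter P) (by
    intro π hπ hπ'
    rw [Finset.mem_filter] at hπ hπ'
    exact (hP π).mp hπ'.2 hπ.2)
  have hU' := key (Finset.univ.filter (fun π => ¬ P π)) (by
    intro π hπ hπ'
    rw [Finset.mem_filter] at hπ hπ'
    exact hπ'.2 ((hP π).mpr hπ.2))
  -- the two kernels span
  have hcop : IsCoprime (∏ π ∈ Finset.univ.filter P, π.1 ^ al π)
      (∏ π ∈ Finset.univ.filter (fun π => ¬ P π), π.1 ^ al π) := by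
    apply IsCoprime.prod_left
    intro π hπ
    apply IsCoprime.prod_right
    intro π' hπ'
    apply IsCoprime.pow
    apply hcopS
    intro h
    rw [Finset.mem_filter] at hπ hπ'
    exact hπ'.2 (h ▸ hπ.2)
  have hsplit : g.charpoly = (X - C 1) ^ k * ((∏ π ∈ Finset.univ.filter P, π.1 ^ al π)
      * (∏ π ∈ Finset.univ.filter (fun π => ¬ P π), π.1 ^ al π)) := by
    rw [hχ]
    unfold Cfsg.Agent.Lib.Helper40.PrimeOrderGL.chi
    rw [Finset.prod_filter_mul_prod_filter_not]
  have hpowinj : ∀ (n : ℕ) (w : ((Fin m ⊕ Fin m) ⊕ Fin 2) → F), ((A - 1) ^ n) w = 0 → w = 0 := by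
    intro n
    induction n with
    | zero => intro w hw; simpa using hw
    | succ n ih =>
      intro w hw
      rw [pow_succ, Module.End.mul_apply] at hw
      have h1 := ih _ hw
      rw [LinearMap.sub_apply, Module.End.one_apply, sub_eq_zero] at h1
      exact hfix w h1
  have htop : LinearMap.ker (aeval A (∏ π ∈ Finset.univ.filter P, π.1 ^ al π))
      ⊔ LinearMap.ker (aeval A (∏ π ∈ Finset.univ.filter (fun π => ¬ P π), π.1 ^ al π)) = ⊤ := by
    rw [Polynomial.sup_ker_aeval_eq_ker_aeval_mul_of_coprime A hcop, eq_top_iff]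
    intro w _
    rw [LinearMap.mem_ker]
    apply hpowinj k
    have h1 : aeval A g.charpoly w = 0 := by rw [hCH, LinearMap.zero_apply]
    rw [hsplit, aeval_mul_apply] at h1
    have h2 : aeval A ((X - C 1 : F[X]) ^ k) = (A - 1) ^ k := by
      rw [map_pow, map_sub, aeval_X, aeval_C, map_one]
    rw [h2] at h1
    exact h1
  have d1 := Cfsg.Agent.Lib.Helper8.OmegaConj.minus_ts_finrank_le m F a c hac hnd _ hU
  have d2 := Cfsg.Agent.Lib.Helper8.OmegaConj.minus_ts_finrank_le m F a c hac hnd _ hU'
  have d3 := Submodule.finrank_add_le_finrank_add_finrank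
    (LinearMap.ker (aeval A (∏ π ∈ Finset.univ.filter P, π.1 ^ al π)))
    (LinearMap.ker (aeval A (∏ π ∈ Finset.univ.filter (fun π => ¬ P π), π.1 ^ al π)))
  rw [htop, finrank_top, Module.finrank_pi, Fintype.card_sum, Fintype.card_sum,
    Fintype.card_fin, Fintype.card_fin] at d3
  omega

end Cfsg.Agent.Lib.Helper8.OCls
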